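import Mathlib.GroupTheory.Nilpotent
import Mathlib.Algebra.DirectSum.Basic
import Mathlib.Algebra.Lie.Basic
import Mathlib.GroupTheory.Index
import Mathlib.Tactic.Group
import Mathlib.Tactic.Abel

/-!
The Lie ring associated with the lower central series of a group.
-/

set_option autoImplicit false

namespace CfsgLib.Kreknin

open scoped DirectSum commutatorElement

universe u

variable (G : Type u) [Group G]

/-- Term of the lower central series, numbered from zero. -/
abbrev lc (i : ℕ) : Subgroup G := (⊤ : Subgroup G).lowerCentralSeries i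

variable {G}

theorem lc_succ_le (i : ℕ) : lc G (i + 1) ≤ lc G i :=
  Subgroup.lowerCentralSeries_antitone (⊤ : Subgroup G) (Nat.le_succ i)

theorem commutator_three_le {A B C N : Subgroup G} [N.Normal] (h1 : ⁅⁅B, C⁆, A⁆ ≤ N)
    (h2 : ⁅⁅C, A⁆, B⁆ ≤ N) : ⁅⁅A, B⁆, C⁆ ≤ N := by
  have hm : ∀ K : Subgroup G, K ≤ N ↔ K.map (QuotientGroup.mk' N) = ⊥ := fun K => by
    rw [Subgroup.map_eq_bot_iff, QuotientGroup.ker_mk']
  rw [hm, Subgroup.map_commutator, Subgroup.map_commutator] at h1 h2 ⊢
  exact Subgroup.commutator_commutator_eq_bot_of_rotate h1 h2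

theorem lc_commutator_le : ∀ (j i : ℕ), ⁅lc G i, lc G j⁆ ≤ lc G (i + j + 1)
  | 0, i => le_of_eq rfl
  | j + 1, i => by
    rw [Subgroup.commutator_comm]
    refine commutator_three_le (A := lc G j) (B := ⊤) (C := lc G i) ?_ ?_
    · rw [Subgroup.commutator_comm ⊤ (lc G i)]
      exact (lc_commutator_le j (i + 1)).trans_eq (by rw [Nat.add_right_comm i 1 j, Nat.add_assoc i j 1])
    · exact (Subgroup.commutator_mono (lc_commutator_le j i) le_rfl).trans_eq
        (by rw [Nat.add_assoc i j 1]; rfl)

theorem lc_comm_mem {i j n : ℕ} {g h : G} (hg : g ∈ lc G i) (hh : h ∈ lc G j)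
    (hn : n ≤ i + j + 1) : ⁅g, h⁆ ∈ lc G n :=
  Subgroup.lowerCentralSeries_antitone (⊤ : Subgroup G) hn
    (lc_commutator_le j i (Subgroup.commutator_mem_commutator hg hh))

theorem mem_lc_zero (g : G) : g ∈ lc G 0 := Subgroup.mem_top g

variable (G)

/-- The `i`-th factor of the lower central series. -/
abbrev Gr (i : ℕ) : Type u := Additive (↥(lc G i) ⧸ (lc G (i + 1)).subgroupOf (lc G i))

noncomputable instance instCommGroupLcQuotient (i : ℕ) :
    CommGroup (↥(lc G i) ⧸ (lc G (i + 1)).subgroupOf (lc G i)) :=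
  { (inferInstance : Group (↥(lc G i) ⧸ (lc G (i + 1)).subgroupOf (lc G i))) with
    mul_comm := fun a b => by
      induction a using QuotientGroup.induction_on with
      | _ x =>
      induction b using QuotientGroup.induction_on with
      | _ y =>
      rw [← QuotientGroup.mk_mul, ← QuotientGroup.mk_mul, QuotientGroup.eq]
      rw [Subgroup.mem_subgroupOf]
      have := lc_comm_mem (inv_mem y.2) (inv_mem x.2) (n := i + 1) (by omega)
      simpa [commutatorElement_def, mul_assoc] using this }

/-- The Lie ring of the lower central series. -/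
abbrev LCS : Type u := ⨁ i, Gr G i

variable {G}

/-- Class of an element in a factor. -/
noncomputable def cl (i : ℕ) (g : ↥(lc G i)) : Gr G i :=
  Additive.ofMul (QuotientGroup.mk g)

theorem exists_cl {i : ℕ} (x : Gr G i) : ∃ g, cl i g = x := by
  obtain ⟨g, hg⟩ := QuotientGroup.mk_surjective (Additive.toMul x)
  exact ⟨g, by rw [cl, hg]; rfl⟩

theorem cl_mul (i : ℕ) (g h : ↥(lc G i)) : cl i (g * h) = cl i g + cl i h := rfl

theorem cl_eq_zero_iff {i : ℕ} {g : ↥(lc G i)} : cl i g = 0 ↔ (g : G) ∈ lc G (i + 1) := by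
  rw [cl, ofMul_eq_zero, QuotientGroup.eq_one_iff, Subgroup.mem_subgroupOf]

/-- Image of an element in the Lie ring. -/
noncomputable def emb (i : ℕ) (g : G) (hg : g ∈ lc G i) : LCS G :=
  DirectSum.of (Gr G) i (cl i ⟨g, hg⟩)

theorem emb_congr {i j : ℕ} {g h : G} (hg : g ∈ lc G i) (e : i = j) (e' : g = h) :
    emb i g hg = emb j h (e ▸ e' ▸ hg) := by
  subst e e'; rfl

theorem emb_mul {i : ℕ} {g h : G} (hg : g ∈ lc G i) (hh : h ∈ lc G i) :
    emb i (g * h) (mul_mem hg hh) = emb i g hg + emb i h hh := by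
  rw [emb, emb, emb, ← map_add, ← cl_mul]; rfl

theorem emb_eq_zero {i : ℕ} {g : G} (hg : g ∈ lc G i) (h : g ∈ lc G (i + 1)) : emb i g hg = 0 := by
  rw [emb, cl_eq_zero_iff.2 h, map_zero]

theorem emb_eq_zero_iff {i : ℕ} {g : G} (hg : g ∈ lc G i) :
    emb i g hg = 0 ↔ g ∈ lc G (i + 1) := by
  refine ⟨fun h => ?_, emb_eq_zero hg⟩
  exact (cl_eq_zero_iff (g := ⟨g, hg⟩)).1 (DirectSum.of_injective i (h.trans (map_zero _).symm))

theorem emb_conj {i : ℕ} {g : G} (hg : g ∈ lc G i) (a : G) (h : a * g * a⁻¹ ∈ lc G i) :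
    emb i (a * g * a⁻¹) h = emb i g hg := by
  have hc : ⁅a, g⁆ ∈ lc G (i + 1) := lc_comm_mem (mem_lc_zero a) hg (by omega)
  rw [emb_congr h rfl (show a * g * a⁻¹ = ⁅a, g⁆ * g by simp [commutatorElement_def, mul_assoc]),
    emb_mul (lc_succ_le i hc) hg, emb_eq_zero _ hc, zero_add]

/-- A homomorphism out of a factor. -/
noncomputable def grLift {M : Type*} [AddCommGroup M] (i : ℕ) (f : ↥(lc G i) → M)
    (hf : ∀ a b, f (a * b) = f a + f b) (hk : ∀ a : ↥(lc G i), (a : G) ∈ lc G (i + 1) → f a = 0) :
    Gr G i →+ M :=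
  AddMonoidHom.mk'
    (fun x => Multiplicative.toAdd (QuotientGroup.lift ((lc G (i + 1)).subgroupOf (lc G i))
      (MonoidHom.mk' (fun a => Multiplicative.ofAdd (f a)) (fun a b => by simp [hf]))
      (fun a ha => by
        rw [MonoidHom.mem_ker]
        simp [hk a ha]) (Additive.toMul x)))
    (fun x y => congrArg Multiplicative.toAdd (map_mul _ (Additive.toMul x) (Additive.toMul y)))

theorem grLift_cl {M : Type*} [AddCommGroup M] (i : ℕ) (f : ↥(lc G i) → M)
    (hf : ∀ a b, f (a * b) = f a + f b) (hk : ∀ a : ↥(lc G i), (a : G) ∈ lc G (i + 1) → f a = 0)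
    (g : ↥(lc G i)) : grLift i f hf hk (cl i g) = f g := rfl

/-- The commutator as an element of the Lie ring. -/
noncomputable def embComm {i j : ℕ} (g : ↥(lc G i)) (h : ↥(lc G j)) : LCS G :=
  emb (i + j + 1) ⁅(g : G), (h : G)⁆ (lc_comm_mem g.2 h.2 le_rfl)

theorem embComm_mul_left {i j : ℕ} (a b : ↥(lc G i)) (h : ↥(lc G j)) :
    embComm (a * b) h = embComm a h + embComm b h := by
  have h1 := lc_comm_mem b.2 h.2 (n := i + j + 1) le_rfl
  have h2 : (a : G) * ⁅(b : G), (h : G)⁆ * (a : G)⁻¹ ∈ lc G (i + j + 1) :=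
    (inferInstance : (lc G (i + j + 1)).Normal).conj_mem _ h1 _
  rw [add_comm (embComm a h), embComm, embComm, embComm]
  rw [emb_congr (lc_comm_mem (a * b).2 h.2 le_rfl) rfl
    (show ⁅((a * b : ↥(lc G i)) : G), (h : G)⁆ =
      ((a : G) * ⁅(b : G), (h : G)⁆ * (a : G)⁻¹) * ⁅(a : G), (h : G)⁆ by
      simp [commutatorElement_def, mul_assoc]),
    emb_mul h2 (lc_comm_mem a.2 h.2 le_rfl), emb_conj h1]

theorem embComm_mul_right {i j : ℕ} (g : ↥(lc G i)) (a b : ↥(lc G j)) :
    embComm g (a * b) = embComm g a + embComm g b := by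
  have h1 := lc_comm_mem g.2 b.2 (n := i + j + 1) le_rfl
  have h2 : (a : G) * ⁅(g : G), (b : G)⁆ * (a : G)⁻¹ ∈ lc G (i + j + 1) :=
    (inferInstance : (lc G (i + j + 1)).Normal).conj_mem _ h1 _
  rw [embComm, embComm, embComm]
  rw [emb_congr (lc_comm_mem g.2 (a * b).2 le_rfl) rfl
    (show ⁅(g : G), ((a * b : ↥(lc G j)) : G)⁆ =
      ⁅(g : G), (a : G)⁆ * ((a : G) * ⁅(g : G), (b : G)⁆ * (a : G)⁻¹) by
      simp [commutatorElement_def, mul_assoc]),
    emb_mul (lc_comm_mem g.2 a.2 le_rfl) h2, emb_conj h1]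

/-- Bracket of a fixed element with a factor. -/
noncomputable def brkRight {i : ℕ} (j : ℕ) (g : ↥(lc G i)) : Gr G j →+ LCS G :=
  grLift j (fun h => embComm g h) (embComm_mul_right g)
    (fun h hh => emb_eq_zero _ (lc_comm_mem g.2 hh (by omega)))

theorem brkRight_cl {i j : ℕ} (g : ↥(lc G i)) (h : ↥(lc G j)) :
    brkRight j g (cl j h) = embComm g h := rfl

/-- Bracket between two factors. -/
noncomputable def brk (i j : ℕ) : Gr G i →+ Gr G j →+ LCS G :=
  grLift i (fun g => brkRight j g)
    (fun a b => AddMonoidHom.ext fun x => by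
      obtain ⟨h, rfl⟩ := exists_cl x
      rw [AddMonoidHom.add_apply, brkRight_cl, brkRight_cl, brkRight_cl, embComm_mul_left])
    (fun a ha => AddMonoidHom.ext fun x => by
      obtain ⟨h, rfl⟩ := exists_cl x
      rw [brkRight_cl, AddMonoidHom.zero_apply]
      exact emb_eq_zero _ (lc_comm_mem ha h.2 (by omega)))

/-- The bracket of the Lie ring. -/
noncomputable def bracketHom : LCS G →+ LCS G →+ LCS G :=
  DirectSum.toAddMonoid fun i => (DirectSum.toAddMonoid fun j => (brk i j).flip).flip

theorem bracketHom_of (i j : ℕ) (x : Gr G i) (y : Gr G j) :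
    bracketHom (DirectSum.of (Gr G) i x) (DirectSum.of (Gr G) j y) = brk i j x y := by
  rw [bracketHom, DirectSum.toAddMonoid_of, AddMonoidHom.flip_apply, DirectSum.toAddMonoid_of,
    AddMonoidHom.flip_apply]

theorem bracketHom_emb {i j : ℕ} {g h : G} (hg : g ∈ lc G i) (hh : h ∈ lc G j) :
    bracketHom (emb i g hg) (emb j h hh) = emb (i + j + 1) ⁅g, h⁆ (lc_comm_mem hg hh le_rfl) := by
  rw [emb, emb, bracketHom_of]; rfl

/-- Induction on the Lie ring. -/
@[elab_as_elim]
theorem lcs_induction {motive : LCS G → Prop} (x : LCS G) (h0 : motive 0)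
    (he : ∀ (i : ℕ) (g : G) (hg : g ∈ lc G i), motive (emb i g hg))
    (hadd : ∀ x y, motive x → motive y → motive (x + y)) : motive x := by
  induction x using DirectSum.induction_on with
  | zero => exact h0
  | of i y =>
    obtain ⟨g, rfl⟩ := exists_cl y
    exact he i g g.2
  | add x y hx hy => exact hadd x y hx hy

theorem emb_inv {i : ℕ} {g : G} (hg : g ∈ lc G i) :
    emb i g⁻¹ (inv_mem hg) = -emb i g hg := by
  rw [← add_eq_zero_iff_eq_neg, ← emb_mul]
  exact emb_eq_zero _ (by simp)

theorem bracketHom_skew (x y : LCS G) : bracketHom x y + bracketHom y x = 0 := by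
  induction x using lcs_induction with
  | h0 => simp
  | he i g hg =>
    induction y using lcs_induction with
    | h0 => simp
    | he j h hh =>
      rw [bracketHom_emb, bracketHom_emb,
        emb_congr (lc_comm_mem hh hg le_rfl) (show j + i + 1 = i + j + 1 by omega)
          (commutatorElement_inv g h).symm,
        emb_inv (lc_comm_mem hg hh le_rfl), add_neg_cancel]
    | hadd y z hy hz =>
      rw [map_add, map_add, AddMonoidHom.add_apply, add_add_add_comm, hy, hz, add_zero]
  | hadd x z hx hz =>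
    rw [map_add, map_add, AddMonoidHom.add_apply, add_add_add_comm, hx, hz, add_zero]

theorem bracketHom_self (x : LCS G) : bracketHom x x = 0 := by
  induction x using lcs_induction with
  | h0 => simp
  | he i g hg =>
    rw [bracketHom_emb]
    exact emb_eq_zero _ (by rw [commutatorElement_self]; exact one_mem _)
  | hadd x y hx hy =>
    simp only [map_add, AddMonoidHom.add_apply]
    rw [hx, hy, zero_add, add_zero, add_comm]
    exact bracketHom_skew x y

theorem bracketHom_cycle (x y z : LCS G) :
    bracketHom (bracketHom x y) z + bracketHom (bracketHom y z) x +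
      bracketHom (bracketHom z x) y = 0 := by
  induction x using lcs_induction with
  | h0 => simp
  | he i a ha =>
    induction y using lcs_induction with
    | h0 => simp
    | he j b hb =>
      induction z using lcs_induction with
      | h0 => simp
      | he k c hc =>
        have nc : ∀ {n : ℕ} {g : G} (_ : g ∈ lc G n) (t : G), t * g * t⁻¹ ∈ lc G n :=
          fun hg t => (inferInstance : (lc G _).Normal).conj_mem _ hg t
        have hN : ∀ {n : ℕ} {g t : G} (hg : g ∈ lc G n) {m : ℕ} {u : G} (hu : u ∈ lc G m) {l : ℕ}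
            {v : G} (hv : v ∈ lc G l), bracketHom (bracketHom (emb n g hg) (emb m u hu)) (emb l v hv) =
              emb (n + m + 1 + l + 1) ⁅⁅g, u⁆, t * v * t⁻¹⁆
                (lc_comm_mem (lc_comm_mem hg hu le_rfl) (nc hv t) le_rfl) := by
          intro n g t hg m u hu l v hv
          rw [bracketHom_emb hg hu, ← emb_conj hv t (nc hv t), bracketHom_emb]
        rw [hN ha hb hc (t := b), hN hb hc ha (t := c), hN hc ha hb (t := a)]
        rw [emb_congr (lc_comm_mem (lc_comm_mem hb hc le_rfl) (nc ha c) le_rfl)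
            (show j + k + 1 + i + 1 = i + j + 1 + k + 1 by omega) rfl,
          emb_congr (lc_comm_mem (lc_comm_mem hc ha le_rfl) (nc hb a) le_rfl)
            (show k + i + 1 + j + 1 = i + j + 1 + k + 1 by omega) rfl,
          ← emb_mul, ← emb_mul]
        refine emb_eq_zero _ ?_
        rw [show ⁅⁅a, b⁆, b * c * b⁻¹⁆ * ⁅⁅b, c⁆, c * a * c⁻¹⁆ * ⁅⁅c, a⁆, a * b * a⁻¹⁆ = 1 by
          simp only [commutatorElement_def]; group]
        exact one_mem _
      | hadd z w hz hw =>
        simp only [map_add, AddMonoidHom.add_apply]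
        rw [← add_zero (0 : LCS G)]
        nth_rewrite 1 [← hz]
        rw [← hw]; abel
    | hadd y w hy hw =>
      simp only [map_add, AddMonoidHom.add_apply]
      rw [← add_zero (0 : LCS G)]
      nth_rewrite 1 [← hy]
      rw [← hw]; abel
  | hadd x w hx hw =>
    simp only [map_add, AddMonoidHom.add_apply]
    rw [← add_zero (0 : LCS G)]
    nth_rewrite 1 [← hx]
    rw [← hw]; abel

noncomputable instance instBracketLCS : Bracket (LCS G) (LCS G) := ⟨fun x y => bracketHom x y⟩

theorem bracket_def (x y : LCS G) : ⁅x, y⁆ = bracketHom x y := rfl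

noncomputable instance instLieRingLCS : LieRing (LCS G) where
  add_lie x y z := by simp only [bracket_def, map_add, AddMonoidHom.add_apply]
  lie_add x y z := by simp only [bracket_def, map_add]
  lie_self x := by rw [bracket_def]; exact bracketHom_self x
  leibniz_lie x y z := by
    simp only [bracket_def]
    have h1 := bracketHom_skew (bracketHom y z) x
    have h2 := bracketHom_skew (bracketHom z x) y
    have h3 := bracketHom_cycle x y z
    have h4 : bracketHom y (bracketHom z x) + bracketHom y (bracketHom x z) = 0 := by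
      rw [← map_add, bracketHom_skew z x, map_zero]
    rw [← sub_eq_zero]
    calc bracketHom x (bracketHom y z) -
          (bracketHom (bracketHom x y) z + bracketHom y (bracketHom x z))
        = (bracketHom (bracketHom y z) x + bracketHom x (bracketHom y z)) +
          (bracketHom (bracketHom z x) y + bracketHom y (bracketHom z x)) -
          (bracketHom (bracketHom x y) z + bracketHom (bracketHom y z) x +
            bracketHom (bracketHom z x) y) -
          (bracketHom y (bracketHom z x) + bracketHom y (bracketHom x z)) := by abel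
      _ = 0 := by rw [h1, h2, h3, h4]; simp

theorem lie_emb {i j : ℕ} {g h : G} (hg : g ∈ lc G i) (hh : h ∈ lc G j) :
    ⁅emb i g hg, emb j h hh⁆ = emb (i + j + 1) ⁅g, h⁆ (lc_comm_mem hg hh le_rfl) :=
  bracketHom_emb hg hh

theorem card_nsmul_eq_zero [Finite G] (x : LCS G) : Nat.card G • x = 0 := by
  induction x using lcs_induction with
  | h0 => simp
  | he i g hg =>
    obtain ⟨k, hk⟩ := Subgroup.card_subgroup_dvd_card (lc G i)
    rw [emb, ← map_nsmul, cl, ← ofMul_pow, ← QuotientGroup.mk_pow, hk, pow_mul, pow_card_eq_one',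
      one_pow, QuotientGroup.mk_one, ofMul_one, map_zero]
  | hadd x y hx hy => rw [nsmul_add, hx, hy, add_zero]

theorem map_mem_lc (f : G →* G) {i : ℕ} {g : G} (hg : g ∈ lc G i) : f g ∈ lc G i := by
  have h := Subgroup.mem_map_of_mem f hg
  rw [Subgroup.map_lowerCentralSeries] at h
  exact Subgroup.lowerCentralSeries_mono i le_top h

/-- The endomorphism of a factor induced by an endomorphism of the group. -/
noncomputable def grMap (f : G →* G) (i : ℕ) : Gr G i →+ Gr G i :=
  grLift i (fun g => cl i ⟨f g, map_mem_lc f g.2⟩)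
    (fun a b => by
      rw [← cl_mul]
      exact congrArg (cl i) (Subtype.ext (map_mul f (a : G) (b : G))))
    (fun a ha => cl_eq_zero_iff.2 (map_mem_lc f ha))

/-- The endomorphism of the Lie ring induced by an endomorphism of the group. -/
noncomputable def lcsMap (f : G →* G) : LCS G →+ LCS G := DirectSum.map (grMap f)

theorem lcsMap_emb (f : G →* G) {i : ℕ} {g : G} (hg : g ∈ lc G i) :
    lcsMap f (emb i g hg) = emb i (f g) (map_mem_lc f hg) := by
  rw [emb, lcsMap, DirectSum.map_of]; rfl

theorem lcsMap_lie (f : G →* G) (x y : LCS G) : lcsMap f ⁅x, y⁆ = ⁅lcsMap f x, lcsMap f y⁆ := by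
  induction x using lcs_induction with
  | h0 => simp
  | he i g hg =>
    induction y using lcs_induction with
    | h0 => simp
    | he j h hh =>
      rw [lie_emb, lcsMap_emb, lcsMap_emb, lcsMap_emb, lie_emb]
      exact emb_congr _ rfl (map_commutatorElement f g h)
    | hadd y z hy hz => simp only [lie_add, map_add, hy, hz]
  | hadd x z hx hz => simp only [add_lie, map_add, hx, hz]

theorem lcsMap_apply (f : G →* G) (x : LCS G) (i : ℕ) : lcsMap f x i = grMap f i (x i) :=
  DirectSum.map_apply _ i x

end CfsgLib.Kreknin
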