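import Cfsg.Agent.Lib.Kreknin.Graded
import Cfsg.Agent.Lib.Kreknin.LCSRing
import Mathlib.Algebra.Lie.BaseChange
import Mathlib.RingTheory.AdjoinRoot
import Mathlib.RingTheory.Polynomial.Cyclotomic.Basic

/-!
Eigenspace grading of a Lie ring with an automorphism of prime order without nonzero fixed points.
-/

set_option autoImplicit false

namespace CfsgLib.Kreknin

open scoped TensorProduct commutatorElement
open Polynomial (cyclotomic)

variable {p : ℕ} [hp : Fact p.Prime]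

variable (p) in
/-- The ring generated over the integers by a primitive `p`-th root of unity. -/
abbrev Cyc : Type := AdjoinRoot (cyclotomic p ℤ)

variable (p) in
/-- The root of unity. -/
noncomputable def om : Cyc p := AdjoinRoot.root (cyclotomic p ℤ)

theorem om_pow_eq_one : om p ^ p = 1 := by
  have h : AdjoinRoot.mk (cyclotomic p ℤ) (Polynomial.X ^ p - 1) = 0 := by
    rw [← Polynomial.cyclotomic_prime_mul_X_sub_one, map_mul, AdjoinRoot.mk_self, zero_mul]
  rw [map_sub, map_pow, map_one, AdjoinRoot.mk_X, sub_eq_zero] at h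
  exact h

theorem sum_om_pow : ∑ i ∈ Finset.range p, om p ^ i = 0 := by
  have h : AdjoinRoot.mk (cyclotomic p ℤ) (∑ i ∈ Finset.range p, Polynomial.X ^ i) = 0 := by
    rw [← Polynomial.cyclotomic_prime, AdjoinRoot.mk_self]
  rw [map_sum] at h
  simp only [map_pow, AdjoinRoot.mk_X] at h
  exact h

/-- The character of the additive group modulo `p`. -/
noncomputable def chi (j : ZMod p) : Cyc p := om p ^ j.val

theorem chi_zero : chi (0 : ZMod p) = 1 := by rw [chi, ZMod.val_zero, pow_zero]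

theorem chi_add (a b : ZMod p) : chi (a + b) = chi a * chi b := by
  rw [chi, chi, chi, ← pow_add]
  conv_rhs => rw [← Nat.mod_add_div (a.val + b.val) p, pow_add, pow_mul, om_pow_eq_one, one_pow,
    mul_one]
  rw [ZMod.val_add]

theorem sum_chi : ∑ j : ZMod p, chi j = 0 := by
  rw [← sum_om_pow (p := p)]
  refine Finset.sum_nbij' (fun j => j.val) (fun i => (i : ZMod p))
    (fun j _ => Finset.mem_range.2 (ZMod.val_lt j)) (fun i _ => Finset.mem_univ _)
    (fun j _ => ZMod.natCast_zmod_val j)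
    (fun i hi => ZMod.val_natCast_of_lt (Finset.mem_range.1 hi)) (fun j _ => rfl)

theorem sum_chi_mul {c : ZMod p} (hc : c ≠ 0) : ∑ j : ZMod p, chi (c * j) = 0 := by
  rw [← sum_chi (p := p)]
  exact Equiv.sum_comp (Equiv.mulLeft₀ c hc) chi

variable {L : Type*} [LieRing L]

set_option linter.unusedSectionVars false

section BracketRules

variable (u v w : Cyc p ⊗[ℤ] L) (a : Cyc p)

theorem br_zero : ⁅u, (0 : Cyc p ⊗[ℤ] L)⁆ = 0 := lie_zero u

theorem zero_br : ⁅(0 : Cyc p ⊗[ℤ] L), u⁆ = 0 := zero_lie u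

theorem br_add : ⁅u, v + w⁆ = ⁅u, v⁆ + ⁅u, w⁆ := lie_add u v w

theorem add_br : ⁅u + v, w⁆ = ⁅u, w⁆ + ⁅v, w⁆ := add_lie u v w

theorem smul_br : ⁅a • u, v⁆ = a • ⁅u, v⁆ := smul_lie a u v

theorem br_smul : ⁅u, a • v⁆ = a • ⁅u, v⁆ := lie_smul a u v

end BracketRules

/-- Extension of an additive map to the tensor product. -/
noncomputable def ext' (T : L →+ L) : Cyc p ⊗[ℤ] L →ₗ[Cyc p] Cyc p ⊗[ℤ] L :=
  LinearMap.baseChange (Cyc p) T.toIntLinearMap

theorem ext'_tmul (T : L →+ L) (a : Cyc p) (x : L) : ext' T (a ⊗ₜ[ℤ] x) = a ⊗ₜ[ℤ] T x := rfl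

theorem ext'_lie {T : L →+ L} (hT : ∀ x y, T ⁅x, y⁆ = ⁅T x, T y⁆) (u v : Cyc p ⊗[ℤ] L) :
    ext' T ⁅u, v⁆ = ⁅ext' T u, ext' T v⁆ := by
  induction u using TensorProduct.induction_on with
  | zero => simp only [map_zero, zero_br]
  | tmul a x =>
    induction v using TensorProduct.induction_on with
    | zero => simp only [map_zero, br_zero]
    | tmul b y =>
      rw [LieAlgebra.ExtendScalars.bracket_tmul, ext'_tmul, ext'_tmul, ext'_tmul,
        LieAlgebra.ExtendScalars.bracket_tmul, hT]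
    | add v w hv hw => simp only [br_add, map_add, hv, hw]
  | add u w hu hw => simp only [add_br, map_add, hu, hw]

theorem ext'_pow_tmul (T : L →+ L) (a : Cyc p) (x : L) :
    ∀ n : ℕ, (ext' T)^[n] (a ⊗ₜ[ℤ] x) = a ⊗ₜ[ℤ] T^[n] x
  | 0 => rfl
  | n + 1 => by
    rw [Function.iterate_succ_apply', ext'_pow_tmul T a x n, ext'_tmul, Function.iterate_succ_apply']

/-- The eigenspaces. -/
noncomputable def eig (T : L →+ L) (j : ZMod p) : AddSubgroup (Cyc p ⊗[ℤ] L) where
  carrier := {v | ext' T v = chi j • v}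
  zero_mem' := by simp
  add_mem' {u v} hu hv := by
    simp only [Set.mem_ofPred_eq] at hu hv ⊢
    rw [map_add, hu, hv, smul_add]
  neg_mem' {u} hu := by
    simp only [Set.mem_ofPred_eq] at hu ⊢
    rw [map_neg, hu, smul_neg]

theorem mem_eig {T : L →+ L} {j : ZMod p} {v : Cyc p ⊗[ℤ] L} :
    v ∈ eig T j ↔ ext' T v = chi j • v := Iff.rfl

theorem nsmul_tensor_eq_zero {N : ℕ} (hN : ∀ x : L, N • x = 0) (v : Cyc p ⊗[ℤ] L) : N • v = 0 := by
  induction v using TensorProduct.induction_on with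
  | zero => simp
  | tmul a x => rw [TensorProduct.smul_tmul', TensorProduct.smul_tmul, hN, TensorProduct.tmul_zero]
  | add u w hu hw => rw [nsmul_add, hu, hw, add_zero]

theorem eq_zero_of_nsmul {M : Type*} [AddCommGroup M] {v : M} {N : ℕ} (hN : N • v = 0)
    (hp' : p • v = 0) (hco : N.Coprime p) : v = 0 :=
  AddMonoid.addOrderOf_eq_one_iff.1 (Nat.eq_one_of_dvd_coprimes hco
    (addOrderOf_dvd_of_nsmul_eq_zero hN) (addOrderOf_dvd_of_nsmul_eq_zero hp'))

theorem iterate_smul (T : L →+ L) (a : Cyc p) (v : Cyc p ⊗[ℤ] L) :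
    ∀ n : ℕ, (ext' T)^[n] (a • v) = a • (ext' T)^[n] v
  | 0 => rfl
  | n + 1 => by
    rw [Function.iterate_succ_apply', iterate_smul T a v n, map_smul, Function.iterate_succ_apply']

/-- Sum over the iterates. -/
theorem sum_iterate_eq_zero {T : L →+ L} (hTp : ∀ x, T^[p] x = x) (hfix : ∀ x, T x = x → x = 0)
    (x : L) : ∑ i ∈ Finset.range p, T^[i] x = 0 := by
  refine hfix _ ?_
  rw [map_sum]
  have h : ∑ i ∈ Finset.range p, T^[i + 1] x = ∑ i ∈ Finset.range p, T^[i] x := by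
    have h1 := Finset.sum_range_succ' (fun i => T^[i] x) p
    rw [Finset.sum_range_succ, hTp] at h1
    exact (add_right_cancel h1).symm
  simpa only [Function.iterate_succ_apply'] using h

theorem eig_zero {T : L →+ L} (hTp : ∀ x, T^[p] x = x) (hfix : ∀ x, T x = x → x = 0) {N : ℕ}
    (hN : ∀ x : L, N • x = 0) (hco : N.Coprime p) : eig T (0 : ZMod p) = ⊥ := by
  rw [eq_bot_iff]
  intro v hv
  rw [mem_eig, chi_zero, one_smul] at hv
  rw [AddSubgroup.mem_bot]
  have hs : ∀ w : Cyc p ⊗[ℤ] L, ∑ i ∈ Finset.range p, (ext' T)^[i] w = 0 := by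
    intro w
    induction w using TensorProduct.induction_on with
    | zero => simp [iterate_map_zero]
    | tmul a x =>
      simp only [ext'_pow_tmul]
      rw [← TensorProduct.tmul_sum, sum_iterate_eq_zero hTp hfix, TensorProduct.tmul_zero]
    | add u w hu hw => simp only [iterate_map_add, Finset.sum_add_distrib, hu, hw, add_zero]
  refine eq_zero_of_nsmul (p := p) (nsmul_tensor_eq_zero hN v) ?_ hco
  have h := hs v
  have he : ∀ i : ℕ, (ext' T)^[i] v = v := fun i => Function.iterate_fixed hv i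
  simp only [he, Finset.sum_const, Finset.card_range] at h
  exact h

theorem isGraded_eig {T : L →+ L} (hlie : ∀ x y, T ⁅x, y⁆ = ⁅T x, T y⁆) (hTp : ∀ x, T^[p] x = x)
    (hfix : ∀ x, T x = x → x = 0) {N : ℕ} (hN : ∀ x : L, N • x = 0) (hco : N.Coprime p) :
    IsGraded (eig (p := p) T) := by
  refine ⟨eig_zero hTp hfix hN hco, fun {a b u v} hu hv => ?_⟩
  rw [mem_eig] at hu hv ⊢
  show ext' T ⁅u, v⁆ = _
  rw [ext'_lie hlie, hu, hv, smul_br, br_smul, smul_smul, chi_add]

theorem tmul_mem_tot {T : L →+ L} (hTp : ∀ x, T^[p] x = x) {N : ℕ} (hN : ∀ x : L, N • x = 0)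
    (hco : N.Coprime p) (x : L) : (1 : Cyc p) ⊗ₜ[ℤ] x ∈ tot (eig (p := p) T) := by
  set v : Cyc p ⊗[ℤ] L := (1 : Cyc p) ⊗ₜ[ℤ] x with hv
  set F : ZMod p → Cyc p ⊗[ℤ] L := fun i => (ext' T)^[i.val] v with hF
  have hper : (ext' T)^[p] v = v := by rw [hv, ext'_pow_tmul, hTp]
  have hnext : ∀ i : ZMod p, ext' T (F i) = F (i + 1) := by
    intro i
    have h1 : ext' T (F i) = (ext' T)^[i.val + 1] v := by rw [Function.iterate_succ_apply']
    rw [h1, ← ((show Function.IsPeriodicPt (ext' T) p v from hper).iterate_mod_apply (i.val + 1))]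
    show _ = (ext' T)^[(i + 1).val] v
    rw [ZMod.val_add, ZMod.val_one]
  set y : ZMod p → Cyc p ⊗[ℤ] L := fun j => ∑ i : ZMod p, chi (-(i * j)) • F i with hy
  have hye : ∀ j, y j ∈ eig T j := by
    intro j
    rw [mem_eig, hy, map_sum, Finset.smul_sum]
    refine Fintype.sum_equiv (Equiv.addRight (1 : ZMod p)) _ _ fun i => ?_
    rw [Equiv.coe_addRight, map_smul, hnext, smul_smul, ← chi_add]
    congr 2
    ring
  have hsum : ∑ j : ZMod p, y j = p • v := by
    rw [hy, Finset.sum_comm, Finset.sum_eq_single (0 : ZMod p)]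
    · simp only [zero_mul, neg_zero, chi_zero, one_smul]
      rw [Finset.sum_const, Finset.card_univ, ZMod.card, hF]
      simp only [ZMod.val_zero, Function.iterate_zero_apply]
    · intro i _ hi
      rw [← Finset.sum_smul]
      simp only [← neg_mul]
      rw [sum_chi_mul (neg_ne_zero.2 hi), zero_smul]
    · exact fun h => absurd (Finset.mem_univ _) h
  have hmem : p • v ∈ tot (eig (p := p) T) := hsum ▸ sum_mem fun j _ => mem_tot (hye j)
  have hb : (v : Cyc p ⊗[ℤ] L) = (Nat.gcdB N p) • (p • v) := by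
    have h1 : (N : ℤ) * Nat.gcdA N p + (p : ℤ) * Nat.gcdB N p = 1 := by
      rw [← Nat.gcd_eq_gcd_ab, hco.gcd_eq_one, Nat.cast_one]
    calc v = ((N : ℤ) * Nat.gcdA N p + (p : ℤ) * Nat.gcdB N p) • v := by rw [h1, one_zsmul]
      _ = _ := by
        rw [add_zsmul, mul_zsmul, natCast_zsmul, nsmul_tensor_eq_zero hN, zero_add,
          mul_comm (p : ℤ), mul_zsmul, natCast_zsmul]
  rw [hb]
  exact zsmul_mem hmem _

theorem tmul_eq_zero {x : L} (h : (1 : Cyc p) ⊗ₜ[ℤ] x = (0 : Cyc p ⊗[ℤ] L)) : x = 0 := by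
  have hm : (cyclotomic p ℤ).Monic := Polynomial.cyclotomic.monic p ℤ
  set pb := AdjoinRoot.powerBasis' hm with hpb
  have hdim : 0 < pb.dim := by
    rw [hpb, AdjoinRoot.powerBasis'_dim, Polynomial.natDegree_cyclotomic]
    exact Nat.totient_pos.2 hp.out.pos
  set φ : Cyc p →ₗ[ℤ] ℤ := pb.basis.coord ⟨0, hdim⟩ with hφ
  have h1 : φ 1 = 1 := by
    have : pb.basis ⟨0, hdim⟩ = 1 := by rw [PowerBasis.basis_eq_pow, pow_zero]
    rw [hφ, ← this, Module.Basis.coord_apply, Module.Basis.repr_self, Finsupp.single_eq_same]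
  have := congrArg (fun w => TensorProduct.lid ℤ L (LinearMap.rTensor L φ w)) h
  simpa [h1] using this

theorem lie_mem_tot {C D : ZMod p → AddSubgroup L} {x y : L} (hx : x ∈ tot C) (hy : y ∈ tot D) :
    ⁅x, y⁆ ∈ tot (prodFam C D) := by
  have h : ∀ a, ∀ u ∈ C a, ⁅u, y⁆ ∈ tot (prodFam C D) := by
    intro a u hu
    have hle : tot D ≤ (tot (prodFam C D)).comap (adL u) :=
      iSup_le fun b w hw => mem_tot (lie_mem_prodFam hu hw)
    exact hle hy
  have hle : tot C ≤ (tot (prodFam C D)).comap (adR y) := iSup_le h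
  exact hle hx

section Group

variable {G : Type*} [Group G]

theorem emb_tmul_mem {C : ZMod p → AddSubgroup (Cyc p ⊗[ℤ] LCS G)}
    (hspan : ∀ x : LCS G, (1 : Cyc p) ⊗ₜ[ℤ] x ∈ tot C) :
    ∀ (k : ℕ) (g : G) (hg : g ∈ lc G k), (1 : Cyc p) ⊗ₜ[ℤ] emb k g hg ∈ tot (lcs C k)
  | 0, g, hg => hspan _
  | k + 1, g, hg => by
    let S : Subgroup G :=
      { carrier := {g | ∃ hg : g ∈ lc G (k + 1), (1 : Cyc p) ⊗ₜ[ℤ] emb (k + 1) g hg ∈ tot (lcs C (k + 1))}
        one_mem' := ⟨one_mem _, by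
          rw [emb_eq_zero _ (one_mem _), TensorProduct.tmul_zero]; exact zero_mem _⟩
        mul_mem' := fun {a b} ⟨ha, ha'⟩ ⟨hb, hb'⟩ => ⟨mul_mem ha hb, by
          rw [emb_mul ha hb, TensorProduct.tmul_add]; exact add_mem ha' hb'⟩
        inv_mem' := fun {a} ⟨ha, ha'⟩ => ⟨inv_mem ha, by
          rw [emb_inv ha, TensorProduct.tmul_neg]; exact neg_mem ha'⟩ }
    suffices hS : lc G (k + 1) ≤ S from (hS hg).2
    refine Subgroup.commutator_le.2 fun a ha b _ => ?_
    refine ⟨lc_comm_mem ha (mem_lc_zero b) (by omega), ?_⟩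
    have h := lie_mem_tot (emb_tmul_mem hspan k a ha) (hspan (emb 0 b (mem_lc_zero b)))
    have h' : ((1 : Cyc p) * 1) ⊗ₜ[ℤ] ⁅emb k a ha, emb 0 b (mem_lc_zero b)⁆ ∈
        tot (lcs C (k + 1)) := h
    rw [one_mul, lie_emb] at h'
    rw [emb_congr _ (show k + 1 = k + 0 + 1 by omega) rfl]
    exact h'

theorem lcsMap_iterate (f : G →* G) :
    ∀ (n : ℕ) {i : ℕ} {g : G} (hg : g ∈ lc G i),
      ∃ h : f^[n] g ∈ lc G i, (lcsMap f)^[n] (emb i g hg) = emb i (f^[n] g) h
  | 0, _, _, hg => ⟨hg, rfl⟩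
  | n + 1, i, g, hg => by
    obtain ⟨h, he⟩ := lcsMap_iterate f n hg
    have h' := map_mem_lc f h
    refine ⟨by rw [Function.iterate_succ_apply']; exact h', ?_⟩
    rw [Function.iterate_succ_apply', he, lcsMap_emb]
    exact emb_congr _ rfl (Function.iterate_succ_apply' f n g).symm

/-- The grading attached to an automorphism of prime order acting freely on all factors. -/
theorem lc_le_succ_of_lcs [Finite G] (hco : (Nat.card G).Coprime p) (f : G →* G)
    (hfp : ∀ g, f^[p] g = g) (hfix : ∀ (i : ℕ) (g : G), g ∈ lc G i → g⁻¹ * f g ∈ lc G (i + 1) →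
      g ∈ lc G (i + 1)) {k : ℕ}
    (hk : ∀ C : ZMod p → AddSubgroup (Cyc p ⊗[ℤ] LCS G), IsGraded C → ∀ a, lcs C k a = ⊥) :
    lc G k ≤ lc G (k + 1) := by
  set T := lcsMap f with hT
  have hTp : ∀ x : LCS G, T^[p] x = x := by
    intro x
    induction x using lcs_induction with
    | h0 => exact iterate_map_zero T p
    | he i g hg =>
      obtain ⟨h, he⟩ := lcsMap_iterate f p hg
      rw [hT, he]
      exact emb_congr _ rfl (hfp g)
    | hadd x y hx hy => rw [iterate_map_add, hx, hy]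
  have hTfix : ∀ x : LCS G, T x = x → x = 0 := by
    intro x hx
    refine DFinsupp.ext fun i => ?_
    obtain ⟨g, hg⟩ := exists_cl (x i)
    have h := lcsMap_apply f x i
    rw [← hT, hx, ← hg] at h
    have h' : cl i g = cl i ⟨f g, map_mem_lc f g.2⟩ := h
    have h2 : cl i (g⁻¹ * ⟨f g, map_mem_lc f g.2⟩) = 0 := by
      rw [cl_mul, ← h', ← cl_mul, inv_mul_cancel]; rfl
    rw [← hg]
    exact cl_eq_zero_iff.2 (hfix i g g.2 (cl_eq_zero_iff.1 h2))
  have hgr := isGraded_eig (p := p) (lcsMap_lie f) hTp hTfix card_nsmul_eq_zero hco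
  have hspan := tmul_mem_tot (p := p) hTp card_nsmul_eq_zero hco
  intro g hg
  have h := emb_tmul_mem hspan k g hg
  have hbot : tot (lcs (eig (p := p) T) k) = ⊥ := by
    rw [tot, iSup_eq_bot]; exact hk _ hgr
  rw [hbot, AddSubgroup.mem_bot] at h
  exact (emb_eq_zero_iff hg).1 (tmul_eq_zero h)

end Group

end CfsgLib.Kreknin
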