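import Mathlib.Algebra.Lie.Basic
import Mathlib.Algebra.Field.ZMod
import Mathlib.Algebra.Ring.GeomSum
import Mathlib.Data.Set.Card

/-!
Graded Lie rings over `ZMod p` with trivial zero component: the theorems of Kreknin and Higman.
-/

set_option autoImplicit false

namespace CfsgLib.Kreknin

set_option linter.unusedSectionVars false

variable {L : Type*} [LieRing L] {p : ℕ}

/-- Right multiplication. -/
def adR (y : L) : L →+ L where
  toFun x := ⁅x, y⁆
  map_zero' := zero_lie y
  map_add' a b := add_lie a b y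

theorem adR_apply (x y : L) : adR y x = ⁅x, y⁆ := rfl

/-- Left multiplication. -/
def adL (x : L) : L →+ L where
  toFun y := ⁅x, y⁆
  map_zero' := lie_zero x
  map_add' a b := lie_add x a b

theorem adL_apply (x y : L) : adL x y = ⁅x, y⁆ := rfl

/-- A family of components with trivial zero component, compatible with the bracket. -/
structure IsGraded (C : ZMod p → AddSubgroup L) : Prop where
  zero : C 0 = ⊥
  lie : ∀ {a b : ZMod p} {x y : L}, x ∈ C a → y ∈ C b → ⁅x, y⁆ ∈ C (a + b)

theorem IsGraded.eq_zero {C : ZMod p → AddSubgroup L} (h : IsGraded C) {a : ZMod p} {x : L}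
    (hx : x ∈ C a) (ha : a = 0) : x = 0 := by
  rw [ha, h.zero, AddSubgroup.mem_bot] at hx
  exact hx

/-- Product of two families. -/
def prodFam (C D : ZMod p → AddSubgroup L) (a : ZMod p) : AddSubgroup L :=
  AddSubgroup.closure {z | ∃ b c x y, x ∈ C b ∧ y ∈ D c ∧ b + c = a ∧ z = ⁅x, y⁆}

theorem lie_mem_prodFam {C D : ZMod p → AddSubgroup L} {b c : ZMod p} {x y : L} (hx : x ∈ C b)
    (hy : y ∈ D c) : ⁅x, y⁆ ∈ prodFam C D (b + c) :=
  AddSubgroup.subset_closure ⟨b, c, x, y, hx, hy, rfl, rfl⟩

theorem prodFam_le {C D : ZMod p → AddSubgroup L} {a : ZMod p} {K : AddSubgroup L}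
    (h : ∀ b c x y, x ∈ C b → y ∈ D c → b + c = a → ⁅x, y⁆ ∈ K) : prodFam C D a ≤ K :=
  (AddSubgroup.closure_le _).2 fun _ ⟨b, c, x, y, hx, hy, he, hz⟩ => hz ▸ h b c x y hx hy he

/-- Derived series of a family. -/
def derived (C : ZMod p → AddSubgroup L) : ℕ → ZMod p → AddSubgroup L
  | 0 => C
  | k + 1 => prodFam (derived C k) (derived C k)

theorem derived_zero (C : ZMod p → AddSubgroup L) : derived C 0 = C := rfl

theorem derived_succ (C : ZMod p → AddSubgroup L) (k : ℕ) :
    derived C (k + 1) = prodFam (derived C k) (derived C k) := rfl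

theorem derived_derived (C : ZMod p → AddSubgroup L) (l : ℕ) :
    ∀ k : ℕ, derived (derived C l) k = derived C (k + l)
  | 0 => by rw [derived_zero, Nat.zero_add]
  | k + 1 => by rw [derived_succ, derived_derived C l k, Nat.add_right_comm, derived_succ]

theorem prodFam_self_le {C : ZMod p → AddSubgroup L} (h : IsGraded C) (a : ZMod p) :
    prodFam C C a ≤ C a :=
  prodFam_le fun _ _ _ _ hx hy he => he ▸ h.lie hx hy

theorem isGraded_derived {C : ZMod p → AddSubgroup L} (h : IsGraded C) :
    ∀ k : ℕ, IsGraded (derived C k)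
  | 0 => h
  | k + 1 => by
    have hk := isGraded_derived h k
    refine ⟨le_bot_iff.1 ((prodFam_self_le hk 0).trans_eq hk.zero), fun hx hy => ?_⟩
    exact lie_mem_prodFam (prodFam_self_le hk _ hx) (prodFam_self_le hk _ hy)

theorem derived_le {C : ZMod p → AddSubgroup L} (h : IsGraded C) (a : ZMod p) :
    ∀ k : ℕ, derived C k a ≤ C a
  | 0 => le_rfl
  | k + 1 => (prodFam_self_le (isGraded_derived h k) a).trans (derived_le h a k)

/-- Products of elements of degree greater than `s`. -/
inductive Word (C : ZMod p → AddSubgroup L) (s : ℕ) : ZMod p → L → Prop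
  | gen {a : ZMod p} {x : L} : x ∈ C a → s < a.val → Word C s a x
  | step {a b : ZMod p} {x y : L} : Word C s a x → y ∈ C b → s < b.val → Word C s (a + b) ⁅x, y⁆

/-- The subring generated by the components of degree greater than `s`. -/
def high (C : ZMod p → AddSubgroup L) (s : ℕ) (a : ZMod p) : AddSubgroup L :=
  AddSubgroup.closure {x | Word C s a x}

theorem Word.mem {C : ZMod p → AddSubgroup L} (h : IsGraded C) {s : ℕ} {a : ZMod p} {x : L}
    (hw : Word C s a x) : x ∈ C a := by
  induction hw with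
  | gen hx _ => exact hx
  | step _ hy _ ih => exact h.lie ih hy

theorem high_le {C : ZMod p → AddSubgroup L} (h : IsGraded C) (s : ℕ) (a : ZMod p) :
    high C s a ≤ C a :=
  (AddSubgroup.closure_le _).2 fun _ hw => hw.mem h

theorem mem_high_gen {C : ZMod p → AddSubgroup L} {s : ℕ} {a : ZMod p} {x : L} (hx : x ∈ C a)
    (ha : s < a.val) : x ∈ high C s a :=
  AddSubgroup.subset_closure (.gen hx ha)

theorem lie_mem_high {C : ZMod p → AddSubgroup L} {s : ℕ} {a b : ZMod p} {x y : L}
    (hx : x ∈ high C s a) (hy : y ∈ high C s b) : ⁅x, y⁆ ∈ high C s (a + b) := by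
  suffices hmain : ∀ (b : ZMod p) (y : L), Word C s b y → ∀ (a : ZMod p) (x : L),
      x ∈ high C s a → ⁅x, y⁆ ∈ high C s (a + b) by
    have : high C s b ≤ (high C s (a + b)).comap (adL x) :=
      (AddSubgroup.closure_le _).2 fun z hz => hmain b z hz a x hx
    exact this hy
  intro b y hw
  induction hw with
  | @gen b y hy' hb =>
    intro a x hx
    have : high C s a ≤ (high C s (a + b)).comap (adR y) :=
      (AddSubgroup.closure_le _).2 fun z hz => AddSubgroup.subset_closure (Word.step hz hy' hb)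
    exact this hx
  | @step b c y z hw hz hc ih =>
    intro a x hx
    have hstep : ∀ {d : ZMod p} {w : L}, w ∈ high C s d → ⁅w, z⁆ ∈ high C s (d + c) := by
      intro d w hw'
      have : high C s d ≤ (high C s (d + c)).comap (adR z) :=
        (AddSubgroup.closure_le _).2 fun v hv => AddSubgroup.subset_closure (Word.step hv hz hc)
      exact this hw'
    have h1 := hstep (ih a x hx)
    have h2 := ih (a + c) ⁅x, z⁆ (hstep hx)
    have he : ⁅x, ⁅y, z⁆⁆ = ⁅⁅x, y⁆, z⁆ - ⁅⁅x, z⁆, y⁆ := by
      rw [lie_lie x y z, ← lie_skew y ⁅x, z⁆]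
      abel
    rw [he]
    refine AddSubgroup.sub_mem _ ?_ ?_
    · rwa [← add_assoc]
    · rwa [show a + (b + c) = a + c + b by abel]

theorem val_add_cases [NeZero p] (a b : ZMod p) :
    a.val + b.val = (a + b).val ∨ a.val + b.val = (a + b).val + p := by
  rcases lt_or_ge (a.val + b.val) p with h | h
  · exact Or.inl (ZMod.val_add_of_lt h).symm
  · exact Or.inr (ZMod.val_add_val_of_le h)

/-- The main computation in Kreknin's theorem. -/
theorem lie_mem_high_succ [NeZero p] {C : ZMod p → AddSubgroup L} (h : IsGraded C) {s : ℕ}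
    {i : ZMod p} {x : L} (hw : Word C s i x) :
    ∀ (j : ZMod p) (y : L), y ∈ C j → i.val < s + 1 → (i + j).val = s + 1 →
      ⁅x, y⁆ ∈ high C (s + 1) (i + j) := by
  induction hw with
  | gen _ ha => intro j y _ hlt _; omega
  | @step a k x c hw hc hk ih =>
    intro j y hy hlt ht
    have hx := hw.mem h
    have hp1 := ZMod.val_lt a
    have hp2 := ZMod.val_lt k
    have hp3 := ZMod.val_lt j
    have hp4 := ZMod.val_lt (k + j)
    have hp5 := ZMod.val_lt (a + j)
    have e1 := val_add_cases a k
    have e2 := val_add_cases (a + k) j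
    have e3 := val_add_cases k j
    have e4 := val_add_cases a j
    have e5 := val_add_cases a (k + j)
    rw [← add_assoc] at e5
    have z0 : ∀ d : ZMod p, d.val = 0 → d = 0 := fun d hd => (ZMod.val_eq_zero d).1 hd
    rw [lie_lie]
    refine AddSubgroup.sub_mem _ ?_ ?_
    · rw [add_assoc]
      by_cases ha : a.val = 0
      · rw [h.eq_zero hx (z0 _ ha), zero_lie]; exact zero_mem _
      by_cases hkj : (k + j).val = 0
      · rw [h.eq_zero (h.lie hc hy) (z0 _ hkj), lie_zero]; exact zero_mem _
      by_cases hat : a.val < s + 1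
      · exact ih (k + j) _ (h.lie hc hy) hat (by rw [← add_assoc]; exact ht)
      · exact lie_mem_high (mem_high_gen hx (by omega)) (mem_high_gen (h.lie hc hy) (by omega))
    · rw [show a + k + j = k + (a + j) by abel]
      by_cases haj : (a + j).val = 0
      · rw [h.eq_zero (h.lie hx hy) (z0 _ haj), lie_zero]; exact zero_mem _
      · exact lie_mem_high (mem_high_gen hc (by omega)) (mem_high_gen (h.lie hx hy) (by omega))

theorem derived_le_high [NeZero p] :
    ∀ (s : ℕ) {C : ZMod p → AddSubgroup L}, IsGraded C → ∀ a : ZMod p,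
      derived C (2 ^ s - 1) a ≤ high C s a
  | 0, C, h, a => by
    intro x hx
    by_cases ha : a = 0
    · rw [h.eq_zero hx ha]; exact zero_mem _
    · exact mem_high_gen hx (Nat.pos_of_ne_zero fun h0 => ha ((ZMod.val_eq_zero a).1 h0))
  | s + 1, C, h, a => by
    set m := 2 ^ s - 1 with hm
    have he : 2 ^ (s + 1) - 1 = m + (m + 1) := by
      have := Nat.two_pow_pos s
      rw [hm, pow_succ]; omega
    set D := derived C m with hD
    set M := derived C (m + 1) with hM
    have hDg : IsGraded D := isGraded_derived h m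
    have hMg : IsGraded M := isGraded_derived h (m + 1)
    have key : ∀ t : ZMod p, t.val = s + 1 → M t ≤ high C (s + 1) t := by
      intro t ht
      refine prodFam_le fun i j x y hx hy hij => ?_
      subst hij
      have hxC := derived_le h i m hx
      have hyC := derived_le h j m hy
      have hsmall : ∀ {i j : ZMod p} {x y : L}, x ∈ D i → y ∈ C j → i.val < s + 1 →
          (i + j).val = s + 1 → ⁅x, y⁆ ∈ high C (s + 1) (i + j) := by
        intro i j x y hx hy hlt hsum
        have : high C s i ≤ (high C (s + 1) (i + j)).comap (adR y) :=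
          (AddSubgroup.closure_le _).2 fun z hz => lie_mem_high_succ h hz j y hy hlt hsum
        exact this (derived_le_high s h i hx)
      by_cases hi : i.val < s + 1
      · exact hsmall hx hyC hi ht
      by_cases hj : j.val < s + 1
      · rw [← lie_skew, add_comm i j]
        exact neg_mem (hsmall hy hxC hj (by rwa [add_comm j i]))
      have e := val_add_cases i j
      by_cases hj0 : j.val = s + 1
      · rcases e with e | e
        · omega
        · have := ZMod.val_lt i; omega
      by_cases hi0 : i.val = s + 1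
      · rcases e with e | e
        · omega
        · have := ZMod.val_lt j; omega
      exact lie_mem_high (mem_high_gen hxC (by omega)) (mem_high_gen hyC (by omega))
    have hgen : ∀ {b : ZMod p} {x : L}, x ∈ M b → s < b.val → x ∈ high C (s + 1) b := by
      intro b x hx hb
      by_cases hb1 : b.val = s + 1
      · exact key b hb1 hx
      · exact mem_high_gen (derived_le h b _ hx) (by omega)
    have hword : ∀ {b : ZMod p} {x : L}, Word M s b x → x ∈ high C (s + 1) b := by
      intro b x hw
      induction hw with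
      | gen hx hb => exact hgen hx hb
      | step _ hy hb ih => exact lie_mem_high ih (hgen hy hb)
    rw [he, ← derived_derived C (m + 1) m]
    exact (derived_le_high s hMg a).trans ((AddSubgroup.closure_le _).2 fun _ hw => hword hw)

/-- **Kreknin**: the derived series of a graded Lie ring with trivial zero component vanishes. -/
theorem derived_eq_bot [NeZero p] {C : ZMod p → AddSubgroup L} (h : IsGraded C) (a : ZMod p) :
    derived C (2 ^ (p - 1) - 1) a = ⊥ := by
  refine le_bot_iff.1 ((derived_le_high (p - 1) h a).trans ((AddSubgroup.closure_le _).2 ?_))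
  intro x hw
  exfalso
  cases hw with
  | gen _ hb => have := ZMod.val_lt a; omega
  | @step _ b _ _ _ _ hb => have := ZMod.val_lt b; omega

/-- Lower central series of a family. -/
def lcs (C : ZMod p → AddSubgroup L) : ℕ → ZMod p → AddSubgroup L
  | 0 => C
  | k + 1 => prodFam (lcs C k) C

theorem lcs_zero (C : ZMod p → AddSubgroup L) : lcs C 0 = C := rfl

theorem lcs_succ (C : ZMod p → AddSubgroup L) (k : ℕ) : lcs C (k + 1) = prodFam (lcs C k) C := rfl

theorem lie_mem_lcs_derived {C : ZMod p → AddSubgroup L} (h : IsGraded C) :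
    ∀ (j : ℕ) {a b : ZMod p} {x y : L}, x ∈ lcs (derived C 1) j a → y ∈ C b →
      ⁅x, y⁆ ∈ lcs (derived C 1) j (a + b)
  | 0, a, b, x, y, hx, hy => lie_mem_prodFam (prodFam_self_le h a hx) hy
  | j + 1, a, b, x, y, hx, hy => by
    suffices hle : lcs (derived C 1) (j + 1) a ≤
        (lcs (derived C 1) (j + 1) (a + b)).comap (adR y) from hle hx
    rw [lcs_succ]
    refine prodFam_le fun i k u v hu hv he => ?_
    show ⁅⁅u, v⁆, y⁆ ∈ prodFam (lcs (derived C 1) j) (derived C 1) (a + b)
    rw [lie_lie, ← he]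
    refine AddSubgroup.sub_mem _ ?_ ?_
    · rw [add_assoc]
      exact lie_mem_prodFam hu (lie_mem_prodFam (prodFam_self_le h k hv) hy)
    · rw [← lie_skew, show i + k + b = i + b + k by abel]
      exact neg_mem (lie_mem_prodFam (lie_mem_lcs_derived h j hu hy) hv)

/-- Left normed product of `u` with a list of elements. -/
def wrd (u : L) : List (ZMod p × L) → L
  | [] => u
  | c :: l => wrd ⁅u, c.2⁆ l

/-- Left normed product as a homomorphism in the first variable. -/
def wrdHom : List (ZMod p × L) → L →+ L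
  | [] => AddMonoidHom.id L
  | c :: l => (wrdHom l).comp (adR c.2)

theorem wrdHom_apply : ∀ (l : List (ZMod p × L)) (u : L), wrdHom l u = wrd u l
  | [], u => rfl
  | c :: l, u => wrdHom_apply l ⁅u, c.2⁆

/-- Sums over the subsets of the degrees. -/
def sums : List (ZMod p × L) → Set (ZMod p)
  | [] => {0}
  | c :: l => sums l ∪ (fun d => c.1 + d) '' sums l

theorem zero_mem_sums : ∀ l : List (ZMod p × L), (0 : ZMod p) ∈ sums l
  | [] => rfl
  | _ :: l => Or.inl (zero_mem_sums l)

theorem sums_large [hp : Fact p.Prime] :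
    ∀ l : List (ZMod p × L), (∀ c ∈ l, c.1 ≠ 0) →
      sums l = Set.univ ∨ l.length + 1 ≤ (sums l).ncard
  | [], _ => Or.inr (by rw [sums, Set.ncard_singleton, List.length_nil])
  | c :: l, hl => by
    rcases sums_large l (fun d hd => hl d (List.mem_cons_of_mem c hd)) with h | h
    · exact Or.inl (by rw [sums, h, Set.univ_union])
    by_cases hsub : (fun d => c.1 + d) '' sums l ⊆ sums l
    · left
      have hk : ∀ k : ℕ, (k : ZMod p) * c.1 ∈ sums l := by
        intro k
        induction k with
        | zero => simpa using zero_mem_sums l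
        | succ k ih =>
          have := hsub ⟨_, ih, rfl⟩
          rwa [Nat.cast_succ, add_mul, one_mul, add_comm]
      refine Set.eq_univ_of_forall fun z => Or.inl ?_
      have := hk (z * c.1⁻¹).val
      rwa [ZMod.natCast_zmod_val, inv_mul_cancel_right₀ (hl c List.mem_cons_self)] at this
    · right
      have hlt : (sums l).ncard < (sums (c :: l)).ncard :=
        Set.ncard_lt_ncard ⟨Set.subset_union_left, fun h' => hsub (Set.subset_union_right.trans h')⟩
          (Set.toFinite _)
      rw [List.length_cons]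
      omega

theorem sums_eq_univ [hp : Fact p.Prime] (l : List (ZMod p × L)) (hl : ∀ c ∈ l, c.1 ≠ 0)
    (hlen : p - 1 ≤ l.length) : sums l = Set.univ := by
  rcases sums_large l hl with h | h
  · exact h
  · refine Set.eq_of_subset_of_ncard_le (Set.subset_univ _) ?_ (Set.toFinite _)
    rw [Set.ncard_univ, Nat.card_eq_fintype_card, ZMod.card]
    omega

/-- Sum of all components of a family. -/
def tot (C : ZMod p → AddSubgroup L) : AddSubgroup L := ⨆ a, C a

theorem mem_tot {C : ZMod p → AddSubgroup L} {a : ZMod p} {x : L} (hx : x ∈ C a) : x ∈ tot C :=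
  AddSubgroup.mem_iSup_of_mem a hx

theorem lie_mem_tot_lcs {C : ZMod p → AddSubgroup L} (h : IsGraded C) {j : ℕ} {b : ZMod p}
    {x y : L} (hx : x ∈ tot (lcs (derived C 1) j)) (hy : y ∈ C b) :
    ⁅x, y⁆ ∈ tot (lcs (derived C 1) j) := by
  have hle : tot (lcs (derived C 1) j) ≤ (tot (lcs (derived C 1) j)).comap (adR y) :=
    iSup_le fun a z hz => mem_tot (lie_mem_lcs_derived h j hz hy)
  exact hle hx

theorem wrd_mem_tot {C : ZMod p → AddSubgroup L} (h : IsGraded C) {j : ℕ} :
    ∀ (l : List (ZMod p × L)) {u : L}, u ∈ tot (lcs (derived C 1) j) →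
      (∀ c ∈ l, c.2 ∈ C c.1) → wrd u l ∈ tot (lcs (derived C 1) j)
  | [], _, hu, _ => hu
  | c :: l, _, hu, hl => wrd_mem_tot h l (lie_mem_tot_lcs h hu (hl c List.mem_cons_self))
      (fun d hd => hl d (List.mem_cons_of_mem c hd))

/-- Moving a factor to the end. -/
theorem wrd_swap_mem {C : ZMod p → AddSubgroup L} (h : IsGraded C) {j : ℕ} :
    ∀ (l : List (ZMod p × L)) {a b : ZMod p} {u y : L}, u ∈ lcs (derived C 1) j a → y ∈ C b →
      (∀ c ∈ l, c.2 ∈ C c.1) →
      wrd ⁅u, y⁆ l - ⁅wrd u l, y⁆ ∈ tot (lcs (derived C 1) (j + 1))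
  | [], a, b, u, y, _, _, _ => by simp [wrd]
  | c :: l, a, b, u, y, hu, hy, hl => by
    have hc := hl c List.mem_cons_self
    have hl' : ∀ d ∈ l, d.2 ∈ C d.1 := fun d hd => hl d (List.mem_cons_of_mem c hd)
    have h1 := wrd_swap_mem h l (lie_mem_lcs_derived h j hu hc) hy hl'
    have h2 : ⁅u, ⁅y, c.2⁆⁆ ∈ tot (lcs (derived C 1) (j + 1)) :=
      mem_tot (lie_mem_prodFam hu (lie_mem_prodFam hy hc))
    have h3 := wrd_mem_tot h l h2 hl'
    have he : ⁅⁅u, y⁆, c.2⁆ = ⁅⁅u, c.2⁆, y⁆ + ⁅u, ⁅y, c.2⁆⁆ := by
      rw [lie_lie u y c.2, ← lie_skew y ⁅u, c.2⁆]; abel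
    show wrd ⁅⁅u, y⁆, c.2⁆ l - ⁅wrd ⁅u, c.2⁆ l, y⁆ ∈ _
    rw [he, ← wrdHom_apply, map_add, wrdHom_apply, wrdHom_apply, add_sub_right_comm]
    exact add_mem h1 h3

/-- A product with a zero partial sum of degrees lies in the next term. -/
theorem wrd_mem_next {C : ZMod p → AddSubgroup L} (h : IsGraded C) {j : ℕ} :
    ∀ (l : List (ZMod p × L)) {a : ZMod p} {u : L}, u ∈ lcs (derived C 1) j a →
      (∀ c ∈ l, c.2 ∈ C c.1) → -a ∈ sums l → wrd u l ∈ tot (lcs (derived C 1) (j + 1))
  | [], a, u, hu, _, ha => by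
    have hC : ∀ (j : ℕ) (a : ZMod p), lcs (derived C 1) j a ≤ C a := by
      intro j
      induction j with
      | zero => exact fun a => derived_le h a 1
      | succ j ih =>
        exact fun a => prodFam_le fun b c x y hx hy he =>
          he ▸ h.lie (ih b hx) (derived_le h c 1 hy)
    have : a = 0 := by simpa [sums] using ha
    rw [wrd, h.eq_zero (hC j a hu) this]
    exact zero_mem _
  | c :: l, a, u, hu, hl, ha => by
    have hc := hl c List.mem_cons_self
    have hl' : ∀ d ∈ l, d.2 ∈ C d.1 := fun d hd => hl d (List.mem_cons_of_mem c hd)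
    rcases ha with ha | ⟨d, hd, he⟩
    · have h1 := wrd_swap_mem h l hu hc hl'
      have h2 := lie_mem_tot_lcs h (wrd_mem_next h l hu hl' ha) hc
      have := add_mem h1 h2
      rwa [sub_add_cancel] at this
    · refine wrd_mem_next h l (lie_mem_lcs_derived h j hu hc) hl' ?_
      have he' : c.1 + d = -a := he
      rwa [show -(a + c.1) = d by rw [neg_add, ← he']; abel]

/-- An element of a later term is a sum of left normed products. -/
theorem lcs_add_le (C : ZMod p → AddSubgroup L) (k : ℕ) :
    ∀ (q : ℕ) (K : AddSubgroup L), (∀ (b : ZMod p) (u : L) (l : List (ZMod p × L)),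
      u ∈ lcs C k b → l.length = q → (∀ c ∈ l, c.2 ∈ C c.1) → wrd u l ∈ K) →
      ∀ a : ZMod p, lcs C (k + q) a ≤ K
  | 0, K, hK, a => fun u hu => hK a u [] hu rfl (fun c hc => absurd hc List.not_mem_nil)
  | q + 1, K, hK, a => by
    rw [← Nat.add_assoc, lcs_succ]
    refine prodFam_le fun b c x y hx hy _ => ?_
    refine (lcs_add_le C k q (K.comap (adR y)) ?_ b) hx
    intro b' u l hu hlen hl
    have happ : ∀ (l : List (ZMod p × L)) (u : L), wrd u (l ++ [(c, y)]) = ⁅wrd u l, y⁆ := by
      intro l
      induction l with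
      | nil => exact fun u => rfl
      | cons d l ih => exact fun u => ih ⁅u, d.2⁆
    show ⁅wrd u l, y⁆ ∈ K
    rw [← happ]
    refine hK b' u _ hu (by rw [List.length_append, hlen, List.length_singleton]) ?_
    intro d hd
    rcases List.mem_append.1 hd with hd | hd
    · exact hl d hd
    · rw [List.mem_singleton.1 hd]; exact hy

theorem lcs_le_tot [hp : Fact p.Prime] {C : ZMod p → AddSubgroup L} (h : IsGraded C) :
    ∀ (j : ℕ) (a : ZMod p), lcs C ((p - 1) * j + 1) a ≤ tot (lcs (derived C 1) j)
  | 0, a => by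
    rw [Nat.mul_zero, Nat.zero_add]
    exact fun x hx => mem_tot hx
  | j + 1, a => by
    rw [show (p - 1) * (j + 1) + 1 = (p - 1) * j + 1 + (p - 1) by
      rw [Nat.mul_succ]; omega]
    refine lcs_add_le C _ _ _ (fun b u l hu hlen hl => ?_) a
    by_cases hz : ∃ c ∈ l, c.1 = 0
    · have hz0 : ∀ (l : List (ZMod p × L)) (u : L), (∀ c ∈ l, c.2 ∈ C c.1) →
          (∃ c ∈ l, c.1 = 0) → wrd u l = 0 := by
        intro l
        induction l with
        | nil => rintro u - ⟨c, hc, -⟩; exact absurd hc List.not_mem_nil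
        | cons d l ih =>
          rintro u hl ⟨c, hc, hc0⟩
          rcases List.mem_cons.1 hc with rfl | hc
          · show wrd ⁅u, c.2⁆ l = 0
            rw [h.eq_zero (hl c List.mem_cons_self) hc0, lie_zero, ← wrdHom_apply, map_zero]
          · exact ih _ (fun e he => hl e (List.mem_cons_of_mem d he)) ⟨c, hc, hc0⟩
      rw [hz0 l u hl hz]
      exact zero_mem _
    push Not at hz
    have hs := sums_eq_univ l hz hlen.ge
    have hle : tot (lcs (derived C 1) j) ≤ (tot (lcs (derived C 1) (j + 1))).comap (wrdHom l) :=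
      iSup_le fun a' z hz' => by
        rw [AddSubgroup.mem_comap, wrdHom_apply]
        exact wrd_mem_next h l hz' hl (hs ▸ Set.mem_univ _)
    have := hle (lcs_le_tot h j b hu)
    rwa [AddSubgroup.mem_comap, wrdHom_apply] at this

theorem lcs_eq_bot_of_derived [hp : Fact p.Prime] :
    ∀ (s : ℕ) {C : ZMod p → AddSubgroup L}, IsGraded C → (∀ a, derived C s a = ⊥) →
      ∀ a, lcs C (∑ i ∈ Finset.range s, (p - 1) ^ i) a = ⊥
  | 0, C, _, hd, a => by rw [Finset.sum_range_zero]; exact hd a
  | s + 1, C, h, hd, a => by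
    rw [geom_sum_succ]
    refine le_bot_iff.1 ((lcs_le_tot h _ a).trans (iSup_le fun b => ?_))
    refine le_of_eq (lcs_eq_bot_of_derived s (isGraded_derived h 1) (fun c => ?_) b)
    rw [derived_derived]; exact hd c

/-- **Higman, Kreknin–Kostrikin**: class bound. -/
theorem lcs_eq_bot [hp : Fact p.Prime] {C : ZMod p → AddSubgroup L} (h : IsGraded C) (a : ZMod p) :
    lcs C (∑ i ∈ Finset.range (2 ^ (p - 1) - 1), (p - 1) ^ i) a = ⊥ :=
  lcs_eq_bot_of_derived _ h (fun b => derived_eq_bot h b) a

/-- The case `p = 3`. -/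
theorem lcs_two_eq_bot {C : ZMod 3 → AddSubgroup L} (h : IsGraded C) (a : ZMod 3) :
    lcs C 2 a = ⊥ := by
  refine le_bot_iff.1 (prodFam_le fun e c w z hw hz _ => ?_)
  have hle : lcs C 1 e ≤ (⊥ : AddSubgroup L).comap (adR z) := by
    refine prodFam_le fun b d x y hx hy _ => ?_
    rw [AddSubgroup.mem_comap, adR_apply, AddSubgroup.mem_bot]
    have hx2 : ⁅⁅x, y⁆, z⁆ = 0 := by
      by_cases hb : b = 0
      · rw [h.eq_zero hx hb, zero_lie, zero_lie]
      by_cases hd : d = 0
      · rw [h.eq_zero hy hd, lie_zero, zero_lie]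
      by_cases hc : c = 0
      · rw [h.eq_zero hz hc, lie_zero]
      by_cases hbd : b + d = 0
      · rw [h.eq_zero (h.lie hx hy) hbd, zero_lie]
      by_cases hs : b + d + c = 0
      · exact h.eq_zero (h.lie (h.lie hx hy) hz) hs
      have key : ∀ b d c : ZMod 3, b ≠ 0 → d ≠ 0 → c ≠ 0 → b + d ≠ 0 → b + d + c ≠ 0 →
          d + c = 0 ∧ b + c = 0 := by decide
      have h1 := key b d c hb hd hc hbd hs
      rw [lie_lie, h.eq_zero (h.lie hy hz) h1.1, h.eq_zero (h.lie hx hz) h1.2, lie_zero, lie_zero,
        sub_zero]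
    exact hx2
  exact hle hw

end CfsgLib.Kreknin
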